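import Mathlib
import Cfsg.Agent.H93.ThOne.Outer

/-!
Thompson's theorem on solvable groups with one class of involutions: the end of the proof.
-/

set_option autoImplicit false
set_option linter.unusedSectionVars false
set_option linter.unusedVariables false

namespace Cfsg.Agent.H93.ThOne

open Subgroup Cfsg
open scoped commutatorElement Pointwise

universe u

theorem sup_normal {Y : Type*} [Group Y] [Finite Y] (hY : Concl Y) {H' : Subgroup Y} [H'.Normal]
    (hmax : ∀ K : Subgroup Y, K.Normal → (Nat.card K).Coprime 2 → K ≤ H') (T' : Sylow 2 Y) :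
    (H' ⊔ (T' : Subgroup Y)).Normal := by
  have : Fact (Nat.Prime 2) := ⟨Nat.prime_two⟩
  obtain ⟨K, L, hK, hL, hKL, hK2, ⟨e, he⟩, hL2⟩ := hY
  have hKH := hmax K hK hK2
  have hTL : (T' : Subgroup Y) ≤ L := by
    rw [← Subgroup.relIndex_eq_one]
    have h1 : L.relIndex T' ∣ L.index := Subgroup.relIndex_dvd_index_of_normal L T'
    obtain ⟨n, hn⟩ := IsPGroup.iff_card.1 T'.isPGroup'
    have h2 : L.relIndex T' ∣ 2 ^ n := by
      rw [← hn]
      exact Subgroup.relIndex_dvd_card L T'
    have h3 := Nat.dvd_gcd h1 h2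
    rw [Nat.Coprime.pow_right n hL2] at h3
    exact Nat.dvd_one.1 h3
  have hKT : K ⊔ (T' : Subgroup Y) = L := by
    apply Subgroup.eq_of_le_of_card_ge (sup_le hKL hTL)
    have h1 := card_mul_relIndex' hKL
    rw [he] at h1
    have h2 : 2 ^ e ∣ Nat.card T' := T'.pow_dvd_card_of_pow_dvd_card (by
      have h3 : Nat.card L ∣ Nat.card Y := Subgroup.card_subgroup_dvd_card L
      rw [← h1] at h3
      exact (Dvd.intro_left _ rfl).trans h3)
    obtain ⟨n, hn⟩ := IsPGroup.iff_card.1 T'.isPGroup'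
    have h4 : Nat.card K * Nat.card T' ∣ Nat.card (K ⊔ (T' : Subgroup Y) : Subgroup Y) := by
      apply Nat.Coprime.mul_dvd_of_dvd_of_dvd
      · rw [hn]; exact Nat.Coprime.pow_right n hK2
      · exact Subgroup.card_dvd_of_le le_sup_left
      · exact Subgroup.card_dvd_of_le le_sup_right
    have h5 := Nat.le_of_dvd Nat.card_pos h4
    rw [← h1]
    exact (Nat.mul_le_mul_left _ (Nat.le_of_dvd Nat.card_pos h2)).trans h5
  have h6 : H' ⊔ (T' : Subgroup Y) = H' ⊔ L := by
    rw [← hKT, ← sup_assoc, sup_eq_left.2 hKH]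
  rw [h6]
  infer_instance

theorem mul_decomp {Y : Type*} [Group Y] [Finite Y] {H' : Subgroup Y} [H'.Normal] (T' : Sylow 2 Y)
    (hn : (H' ⊔ (T' : Subgroup Y)).Normal) : ∀ y : Y, ∃ h ∈ H', ∃ m ∈ normalizer ((T' : Subgroup Y) : Set Y), y = h * m := by
  have : Fact (Nat.Prime 2) := ⟨Nat.prime_two⟩
  have h1 := Sylow.normalizer_sup_eq_top' (N := H' ⊔ (T' : Subgroup Y)) T' le_sup_right
  have h2 : H' ⊔ normalizer ((T' : Subgroup Y) : Set Y) = ⊤ := by
    rw [eq_top_iff, ← h1]
    refine sup_le le_sup_right (sup_le le_sup_left ?_)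
    exact le_normalizer.trans le_sup_right
  intro y
  have h3 : y ∈ H' ⊔ normalizer ((T' : Subgroup Y) : Set Y) := by rw [h2]; trivial
  rw [mem_sup_of_normal_left] at h3
  obtain ⟨h, hh, m, hm, hhm⟩ := h3
  exact ⟨h, hh, m, hm, hhm.symm⟩

theorem final_step {G : Type u} [Group G] [Finite G] [Group.IsSolvable G] (h0 : pPrimeCore 2 G = ⊥)
    (hconj : HConj G) (htwo : HTwo G)
    (IH : ∀ (Y : Type u) [Group Y] [Finite Y], Nat.card Y < Nat.card G → Group.IsSolvable Y → HConj Y → HTwo Y → Concl Y) :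
    Concl G := by
  have : Fact (Nat.Prime 2) := ⟨Nat.prime_two⟩
  set Q := pCore 2 G with hQd
  have hQp : IsPGroup 2 Q := Solv.pCore_isPGroup 2
  have hQn : Q.Normal := Solv.pCore_normal 2
  have hCQ : centralizer (Q : Set G) ≤ Q := H34.centralizer_pCore_two_le h0
  -- involutions are central in Q
  have hinvQ : ∀ x : G, x * x = 1 → x ∈ Q ∧ ∀ q ∈ Q, q * x = x * q := by
    have hQne : Q ≠ ⊥ := by
      intro h
      obtain ⟨x, _, hx1, _⟩ := htwo
      rw [h] at hCQ
      have hx : x ∈ centralizer (((⊥ : Subgroup G) : Subgroup G) : Set G) := by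
        rw [mem_centralizer_iff]
        intro y hy
        rw [mem_bot.1 hy]; group
      exact hx1 (mem_bot.1 (hCQ hx))
    obtain ⟨v, hvQ, hv1, hvc⟩ := exists_fixed hQp le_normalizer hQp hQne
    have hZne : Q ⊓ centralizer (Q : Set G) ≠ ⊥ := by
      intro h
      have : v ∈ Q ⊓ centralizer (Q : Set G) := ⟨hvQ, mem_centralizer_iff.2 hvc⟩
      rw [h, mem_bot] at this
      exact hv1 this
    obtain ⟨z, hz, hz1, hz2⟩ := exists_involution (hQp.to_le inf_le_left) hZne
    intro x hx
    by_cases hx1 : x = 1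
    · rw [hx1]; exact ⟨Q.one_mem, fun q _ => by rw [mul_one, one_mul]⟩
    obtain ⟨g, rfl⟩ := hconj z x hz1 hz2 hx1 hx
    refine ⟨hQn.conj_mem z hz.1 g, fun q hq => ?_⟩
    have h1 : g⁻¹ * q * g ∈ Q := by
      have := hQn.conj_mem q hq g⁻¹
      rwa [inv_inv] at this
    have h2 := mem_centralizer_iff.1 hz.2 _ h1
    calc q * (g * z * g⁻¹) = g * ((g⁻¹ * q * g) * z) * g⁻¹ := by group
      _ = g * (z * (g⁻¹ * q * g)) * g⁻¹ := by rw [h2]
      _ = _ := by group
  -- the subgroup of involutions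
  let V : Subgroup G :=
    { carrier := {x | x * x = 1}
      mul_mem' := by
        intro a b ha hb
        have hc := (hinvQ b hb).2 a (hinvQ a ha).1
        show (a * b) * (a * b) = 1
        calc (a * b) * (a * b) = (b * a) * (a * b) := by rw [hc]
          _ = b * (a * a) * b := by group
          _ = 1 := by
            have ha' : a * a = 1 := ha
            have hb' : b * b = 1 := hb
            rw [ha', mul_one, hb']
      one_mem' := mul_one 1
      inv_mem' := by
        intro a ha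
        have ha' : a * a = 1 := ha
        show a⁻¹ * a⁻¹ = 1
        rw [← mul_inv_rev, ha', inv_one] }
  have hVmem : ∀ x, x ∈ V ↔ x * x = 1 := fun x => Iff.rfl
  have hVQ : V ≤ Q := fun x hx => (hinvQ x hx).1
  have hVn : V.Normal := by
    constructor
    intro x hx g
    show (g * x * g⁻¹) * (g * x * g⁻¹) = 1
    have hx' : x * x = 1 := hx
    calc (g * x * g⁻¹) * (g * x * g⁻¹) = g * (x * x) * g⁻¹ := by group
      _ = 1 := by rw [hx', mul_one, mul_inv_cancel]
  have hVp : IsPGroup 2 V := hQp.to_le hVQ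
  -- the subgroup `O_{2,2'}`
  set L0 := (pPrimeCore 2 (G ⧸ Q)).comap (QuotientGroup.mk' Q) with hL0
  have hL0n : L0.Normal := (Solv.pPrimeCore_normal 2).comap _
  have hQL : Q ≤ L0 := H63.le_comap_mk' Q _
  have hrel : Q.relIndex L0 = Nat.card (pPrimeCore 2 (G ⧸ Q)) := H63.relIndex_comap_mk' Q _
  have hrel2 : (Q.relIndex L0).Coprime 2 := by rw [hrel]; exact Solv.pPrimeCore_card_coprime 2
  obtain ⟨nQ, hnQ⟩ := IsPGroup.iff_card.1 hQp
  have hcopQ : (Nat.card Q).Coprime (Q.relIndex L0) := by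
    rw [hnQ]; exact (Nat.Coprime.pow_right nQ hrel2).symm
  have hQnorm : ∀ K : Subgroup G, K ≤ normalizer (Q : Set G) := fun K => by
    rw [Subgroup.normalizer_eq_top_iff.2 hQn]; exact le_top
  obtain ⟨H, hHL, hQH, hdec, hcard, hHc⟩ := exists_compl hQL (hQnorm L0) hcopQ
  have hH2 : (Nat.card H).Coprime 2 := by rw [hHc]; exact hrel2
  set N := normalizer (H : Set G) with hN
  have hHN : H ≤ N := le_normalizer
  have hsolvQ : Group.IsSolvable Q := by
    have := hQp.isNilpotent
    infer_instance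
  -- Frattini for the complement
  have hGQN : ∀ g : G, ∃ q ∈ Q, ∃ n ∈ N, g = q * n := by
    intro g
    have hB : MulAut.conj g • H ≤ L0 := by
      intro x hx
      rw [Hall.mem_conj_smul] at hx
      have := hL0n.conj_mem _ (hHL hx) g
      have e : g * (g⁻¹ * x * g) * g⁻¹ = x := by group
      rwa [e] at this
    have hBc : Nat.card (MulAut.conj g • H : Subgroup G) = Q.relIndex L0 := by
      rw [← hHc]
      exact (Nat.card_congr (Subgroup.equivSMul (MulAut.conj g) H).toEquiv).symm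
    obtain ⟨q, hq, hqH⟩ := Hall.sz_conj_rel Q L0 hQL (hQnorm L0) hcopQ hsolvQ H (MulAut.conj g • H) hHL hB hHc hBc
    refine ⟨q, hq, q⁻¹ * g, ?_, by group⟩
    apply Cop.mem_normalizer_of_conj_smul_eq
    rw [map_mul, mul_smul, ← hqH, ← mul_smul, ← map_mul, inv_mul_cancel, map_one, one_smul]
  -- the Sylow subgroup of `N`
  obtain ⟨T'⟩ : Nonempty (Sylow 2 N) := inferInstance
  set T := (T' : Subgroup N).map N.subtype with hT
  have hTN : T ≤ N := map_subtype_le _
  have hTp : IsPGroup 2 T := T'.isPGroup'.map _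
  have hH'n : (H.subgroupOf N).Normal := Subgroup.normal_in_normalizer
  have hQH' : ∀ x ∈ Q, x ∈ N → ∀ h ∈ H, h * x = x * h := by
    intro x hx hxN h hh
    have h1 : x * h * x⁻¹ ∈ H := conj_mem_of_norm hxN hh
    have h2 : h⁻¹ * (x * h * x⁻¹) ∈ H := H.mul_mem (H.inv_mem hh) h1
    have h3 : h⁻¹ * (x * h * x⁻¹) ∈ Q := by
      have h4 : h⁻¹ * x * h ∈ Q := by
        have := hQn.conj_mem x hx h⁻¹
        rwa [inv_inv] at this
      have := Q.mul_mem h4 (Q.inv_mem hx)
      have e : h⁻¹ * x * h * x⁻¹ = h⁻¹ * (x * h * x⁻¹) := by group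
      rwa [e] at this
    have h4 : h⁻¹ * (x * h * x⁻¹) = 1 := by
      have : h⁻¹ * (x * h * x⁻¹) ∈ Q ⊓ H := ⟨h3, h2⟩
      rwa [hQH, mem_bot] at this
    have h5 : x * h * x⁻¹ = h := (inv_mul_eq_one.1 h4).symm
    calc h * x = (x * h * x⁻¹) * x := by rw [h5]
      _ = x * h := by group
  by_cases hTC : ∀ t ∈ T, ∀ h ∈ H, h * t = t * h
  · -- `T ≤ Q`
    have hTQ : T ≤ Q := by
      intro t ht
      have h1 : (t : G ⧸ Q) ∈ centralizer (pPrimeCore 2 (G ⧸ Q) : Set (G ⧸ Q)) := by
        rw [mem_centralizer_iff]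
        intro y hy
        obtain ⟨g, rfl⟩ := QuotientGroup.mk_surjective y
        have hg : g ∈ L0 := hy
        obtain ⟨q, hq, h, hh, rfl⟩ := hdec g hg
        have e1 : ((q * h : G) : G ⧸ Q) = (h : G ⧸ Q) := by
          rw [QuotientGroup.mk_mul, (QuotientGroup.eq_one_iff q).2 hq, one_mul]
        rw [e1, ← QuotientGroup.mk_mul, ← QuotientGroup.mk_mul, hTC t ht h hh]
      have h2 := centralizer_pPrimeCore_two_le (G := G ⧸ Q) (Solv.pCore_quotient_pCore 2) h1
      have h3 : t ∈ L0 := h2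
      obtain ⟨q, hq, h, hh, hqh⟩ := hdec t h3
      -- h = q⁻¹ t has odd order and t q-commutes
      obtain ⟨k, hk⟩ := hTp ⟨t, ht⟩
      have hk' : t ^ 2 ^ k = 1 := congrArg Subtype.val hk
      have e2 : ((h ^ 2 ^ k : G) : G ⧸ Q) = 1 := by
        have e1 : (t : G ⧸ Q) = (h : G ⧸ Q) := by
          rw [hqh, QuotientGroup.mk_mul, (QuotientGroup.eq_one_iff q).2 hq, one_mul]
        rw [QuotientGroup.mk_pow, ← e1, ← QuotientGroup.mk_pow, hk']; rfl
      rw [QuotientGroup.eq_one_iff] at e2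
      have e3 : h ^ 2 ^ k = 1 := by
        have : h ^ 2 ^ k ∈ Q ⊓ H := ⟨e2, H.pow_mem hh _⟩
        rwa [hQH, mem_bot] at this
      have e4 : h = 1 := by
        have h4 : orderOf h ∣ 2 ^ k := orderOf_dvd_of_pow_eq_one e3
        have h5 : orderOf h ∣ Nat.card H := Subgroup.orderOf_dvd_natCard H hh
        have h6 := Nat.dvd_gcd h5 h4
        rw [Nat.Coprime.pow_right k hH2] at h6
        exact orderOf_eq_one_iff.1 (Nat.dvd_one.1 h6)
      rw [hqh, e4, mul_one]; exact hq
    refine ⟨⊥, Q, inferInstance, hQn, bot_le, by rw [Subgroup.card_bot]; exact Nat.coprime_one_left 2, ⟨nQ, ?_⟩, ?_⟩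
    · rw [Subgroup.relIndex_bot_left]; exact hnQ
    · -- index of Q
      have h1 : Q.index = Q.relIndex N := by
        have h2 : Q ⊔ N = ⊤ := by
          rw [eq_top_iff]
          intro g _
          obtain ⟨q, hq, n, hn, rfl⟩ := hGQN g
          exact Subgroup.mul_mem_sup hq hn
        rw [← Subgroup.relIndex_top_right, ← h2, sup_comm, Subgroup.relIndex_sup_right]
      rw [h1]
      have h3 : Q.relIndex N ∣ T.relIndex N := Subgroup.relIndex_dvd_of_le_left N hTQ
      apply Nat.Coprime.coprime_dvd_left h3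
      have h4 : T.relIndex N = (T' : Subgroup N).index := by
        show (T.subgroupOf N).index = _
        congr 1
        exact Subgroup.comap_map_eq_self_of_injective N.subtype_injective _
      rw [h4]
      exact ((Nat.Prime.coprime_iff_not_dvd Nat.prime_two).2 T'.not_dvd_index).symm
  · exfalso
    push Not at hTC
    obtain ⟨t₀, ht₀, h₀, hh₀, hth₀⟩ := hTC
    have hTne : T ≠ ⊥ := by
      intro h
      rw [h, mem_bot] at ht₀
      exact hth₀ (by rw [ht₀, mul_one, one_mul])
    have hHne : H ≠ ⊥ := by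
      intro h
      rw [h, mem_bot] at hh₀
      exact hth₀ (by rw [hh₀, mul_one, one_mul])
    -- an involution in `T` centralizes `L0`
    obtain ⟨x₀, hx₀T, hx₀1, hx₀2⟩ := exists_involution hTp hTne
    have hx₀L : ∀ l ∈ L0, l * x₀ = x₀ * l := by
      intro l hl
      obtain ⟨q, hq, h, hh, rfl⟩ := hdec l hl
      have h1 := (hinvQ x₀ hx₀2).2 q hq
      have h2 := hQH' x₀ (hinvQ x₀ hx₀2).1 (hTN hx₀T) h hh
      rw [mul_assoc, h2, ← mul_assoc, h1, mul_assoc]
    have hVL : ∀ v ∈ V, ∀ l ∈ L0, l * v = v * l := by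
      intro v hv l hl
      by_cases hv1 : v = 1
      · rw [hv1, mul_one, one_mul]
      obtain ⟨g, rfl⟩ := hconj x₀ v hx₀1 hx₀2 hv1 hv
      have h1 : g⁻¹ * l * g ∈ L0 := by
        have := hL0n.conj_mem l hl g⁻¹
        rwa [inv_inv] at this
      have h2 := hx₀L _ h1
      calc l * (g * x₀ * g⁻¹) = g * ((g⁻¹ * l * g) * x₀) * g⁻¹ := by group
        _ = g * (x₀ * (g⁻¹ * l * g)) * g⁻¹ := by rw [h2]
        _ = _ := by group
    have hHV : ∀ h ∈ H, ∀ v ∈ V, h * v = v * h := fun h hh v hv => hVL v hv h (hHL hh)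
    have hQV : ∀ q ∈ Q, ∀ v ∈ V, q * v = v * q := fun q hq v hv => (hinvQ v hv).2 q hq
    have hVN : V ≤ N := by
      intro v hv
      rw [hN, mem_normalizer_iff]
      intro h
      constructor
      · intro hh
        rw [← hHV h hh v hv, mul_inv_cancel_right]; exact hh
      · intro hh
        have h1 := hHV _ hh v⁻¹ (V.inv_mem hv)
        have e : h = v⁻¹ * (v * h * v⁻¹) * v := by group
        rw [e, ← h1, inv_mul_cancel_right]; exact hh
    -- N is transitive on V
    have hNV : ∀ x ∈ V, ∀ y ∈ V, x ≠ 1 → y ≠ 1 → ∃ n ∈ N, n * x * n⁻¹ = y := by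
      intro x hx y hy hx1 hy1
      obtain ⟨g, hg⟩ := hconj x y hx1 hx hy1 hy
      obtain ⟨q, hq, n, hn, rfl⟩ := hGQN g
      refine ⟨n, hn, ?_⟩
      have h1 : n * x * n⁻¹ ∈ V := hVn.conj_mem x hx n
      have h2 := hQV q hq _ h1
      calc n * x * n⁻¹ = q * (n * x * n⁻¹) * q⁻¹ := by rw [h2, mul_inv_cancel_right]
        _ = q * n * x * (q * n)⁻¹ := by group
        _ = y := hg
    -- the quotient `N / H`
    have hcardH' : Nat.card (H.subgroupOf N) = Nat.card H := Nat.card_congr (Subgroup.subgroupOfEquivOfLe hHN).toEquiv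
    have hN1 : HConj (N ⧸ H.subgroupOf N) := by
      apply hconj_quot _ (by rw [hcardH']; exact hH2)
      rintro ⟨x, hx⟩ ⟨y, hy⟩ hx1 hx2 hy1 hy2
      obtain ⟨n, hn, hny⟩ := hNV x (congrArg Subtype.val hx2) y (congrArg Subtype.val hy2)
        (fun h => hx1 (Subtype.ext h)) (fun h => hy1 (Subtype.ext h))
      exact ⟨⟨n, hn⟩, Subtype.ext hny⟩
    obtain ⟨x, y, hx1, hy1, hxy, hx2, hy2, hxyc⟩ := htwo
    have hN2 : HTwo (N ⧸ H.subgroupOf N) := by
      apply htwo_quot _ (by rw [hcardH']; exact hH2)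
      exact ⟨⟨x, hVN hx2⟩, ⟨y, hVN hy2⟩, fun h => hx1 (congrArg Subtype.val h), fun h => hy1 (congrArg Subtype.val h),
        fun h => hxy (congrArg Subtype.val h), Subtype.ext hx2, Subtype.ext hy2, Subtype.ext hxyc⟩
    have hlt : Nat.card (N ⧸ H.subgroupOf N) < Nat.card G := by
      have h1 : Nat.card N = Nat.card (N ⧸ H.subgroupOf N) * Nat.card (H.subgroupOf N) :=
        Subgroup.card_eq_card_quotient_mul_card_subgroup _
      have h2 : 1 < Nat.card (H.subgroupOf N) := by
        rw [hcardH']; exact (Subgroup.one_lt_card_iff_ne_bot H).2 hHne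
      have h3 : Nat.card N ≤ Nat.card G := Subgroup.card_le_card_group N
      have h4 : 0 < Nat.card (N ⧸ H.subgroupOf N) := Nat.card_pos
      nlinarith
    have hYc : Concl N := concl_of_quot (H.subgroupOf N) (by rw [hcardH']; exact hH2)
      (IH _ hlt inferInstance hN1 hN2)
    -- normal odd subgroups of N are in H
    have hmax : ∀ K : Subgroup N, K.Normal → (Nat.card K).Coprime 2 → K ≤ H.subgroupOf N := by
      intro K hK hK2
      -- the 2'-core of N
      set O := pPrimeCore 2 N with hO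
      have hKO : K ≤ O := Solv.le_pPrimeCore hK hK2
      have hHO : H.subgroupOf N ≤ O := Solv.le_pPrimeCore hH'n (by rw [hcardH']; exact hH2)
      have hO2 : (Nat.card O).Coprime 2 := Solv.pPrimeCore_card_coprime 2
      have hOn : O.Normal := Solv.pPrimeCore_normal 2
      set M := O.map N.subtype with hM
      have hMc : Nat.card M = Nat.card O := Cop.card_map_subtype O
      have hML : M ≤ L0 := by
        have h1 : (M.map (QuotientGroup.mk' Q)).Normal := by
          constructor
          rintro _ ⟨_, ⟨m, hm, rfl⟩, rfl⟩ b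
          obtain ⟨g, rfl⟩ := QuotientGroup.mk'_surjective Q b
          obtain ⟨q, hq, n, hn, rfl⟩ := hGQN g
          refine ⟨n * m * n⁻¹, ⟨⟨n, hn⟩ * m * ⟨n, hn⟩⁻¹, hOn.conj_mem m hm ⟨n, hn⟩, rfl⟩, ?_⟩
          have e1 : QuotientGroup.mk' Q (q * n) = QuotientGroup.mk' Q n := by
            rw [map_mul]
            have : QuotientGroup.mk' Q q = 1 := (QuotientGroup.eq_one_iff q).2 hq
            rw [this, one_mul]
          rw [e1, map_mul, map_mul, map_inv]
          rfl
        have h2 : (Nat.card (M.map (QuotientGroup.mk' Q))).Coprime 2 :=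
          Nat.Coprime.coprime_dvd_left (Subgroup.card_map_dvd _ _) (by rw [hMc]; exact hO2)
        have h3 := Solv.le_pPrimeCore h1 h2
        exact Subgroup.map_le_iff_le_comap.1 h3
      have h4 : Nat.card M ∣ Nat.card H := by
        have h5 : Nat.card M ∣ Nat.card Q * Nat.card H := by
          rw [hcard]; exact Subgroup.card_dvd_of_le hML
        refine Nat.Coprime.dvd_of_dvd_mul_left ?_ h5
        rw [hMc, hnQ]; exact Nat.Coprime.pow_right nQ hO2
      have h5 : H.subgroupOf N = O := by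
        apply Subgroup.eq_of_le_of_card_ge hHO
        rw [hcardH', ← hMc]
        exact Nat.le_of_dvd Nat.card_pos h4
      rw [h5]; exact hKO
    have hTHn := sup_normal hYc hmax T'
    have hdecN := mul_decomp T' hTHn
    -- complement of T' in its normalizer
    have hrelT : ((T' : Subgroup N).relIndex (normalizer ((T' : Subgroup N) : Set N))).Coprime 2 := by
      have h1 : (T' : Subgroup N).relIndex (normalizer ((T' : Subgroup N) : Set N)) ∣ (T' : Subgroup N).index :=
        Dvd.intro _ (Subgroup.relIndex_mul_index le_normalizer)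
      exact Nat.Coprime.coprime_dvd_left h1 ((Nat.Prime.coprime_iff_not_dvd Nat.prime_two).2 T'.not_dvd_index).symm
    obtain ⟨nT, hnT⟩ := IsPGroup.iff_card.1 T'.isPGroup'
    obtain ⟨A', hA'M, hTA', hdecM, _, hA'c⟩ := exists_compl (Q := (T' : Subgroup N)) le_normalizer (le_refl _) (by
      rw [hnT]; exact (Nat.Coprime.pow_right nT hrelT).symm)
    set A := A'.map N.subtype with hA
    have hA2 : (Nat.card A).Coprime 2 := by
      rw [hA, Cop.card_map_subtype, hA'c]; exact hrelT
    have hAN : A ≤ N := map_subtype_le _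
    have hAT : A ≤ normalizer (T : Set G) := by
      apply Cop.normalizer_le_of_forall
      rintro _ ⟨a, ha, rfl⟩ _ ⟨t, ht, rfl⟩
      exact ⟨a * t * a⁻¹, conj_mem_of_norm (hA'M ha) ht, rfl⟩
    -- decomposition of N
    have hdecN2 : ∀ n ∈ N, ∃ h ∈ H, ∃ t ∈ T, ∃ a ∈ A, n = h * (t * a) := by
      intro n hn
      obtain ⟨h, hh, m, hm, hnm⟩ := hdecN ⟨n, hn⟩
      obtain ⟨t, ht, a, ha, hta⟩ := hdecM m hm
      refine ⟨h, hh, t, ⟨t, ht, rfl⟩, a, ⟨a, ha, rfl⟩, ?_⟩
      rw [hta] at hnm
      exact congrArg Subtype.val hnm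
    have hVne : V ≠ ⊥ := by
      intro h
      have : x ∈ V := hx2
      rw [h, mem_bot] at this
      exact hx1 this
    have hVnorm : ∀ K : Subgroup G, K ≤ normalizer (V : Set G) := fun K => by
      rw [Subgroup.normalizer_eq_top_iff.2 hVn]; exact le_top
    -- T centralizes V
    have hTV : ∀ t ∈ T, ∀ v ∈ V, t * v = v * t := by
      obtain ⟨v, hv, hv1, hvT⟩ := exists_fixed hTp (hVnorm T) hVp hVne
      intro t ht w hw
      by_cases hw1 : w = 1
      · rw [hw1, mul_one, one_mul]
      obtain ⟨n, hn, rfl⟩ := hNV v hv w hw hv1 hw1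
      obtain ⟨h, hh, t', ht', a, ha, rfl⟩ := hdecN2 n hn
      -- n v n⁻¹ = h t' a v a⁻¹ t'⁻¹ h⁻¹
      have h1 : a * v * a⁻¹ ∈ V := hVn.conj_mem v hv a
      have h2 : ∀ s ∈ T, s * (a * v * a⁻¹) = (a * v * a⁻¹) * s := by
        intro s hs
        have h3 : a⁻¹ * s * a ∈ T := by
          have := conj_mem_of_norm (hAT (A.inv_mem ha)) hs
          rwa [inv_inv] at this
        have h4 := hvT _ h3
        calc s * (a * v * a⁻¹) = a * ((a⁻¹ * s * a) * v) * a⁻¹ := by group
          _ = a * (v * (a⁻¹ * s * a)) * a⁻¹ := by rw [h4]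
          _ = _ := by group
      have h5 : h * (t' * a) * v * (h * (t' * a))⁻¹ = a * v * a⁻¹ := by
        calc h * (t' * a) * v * (h * (t' * a))⁻¹ = h * (t' * (a * v * a⁻¹)) * t'⁻¹ * h⁻¹ := by group
          _ = h * ((a * v * a⁻¹) * t') * t'⁻¹ * h⁻¹ := by rw [h2 t' ht']
          _ = (h * (a * v * a⁻¹)) * h⁻¹ := by group
          _ = ((a * v * a⁻¹) * h) * h⁻¹ := by rw [hHV h hh _ h1]
          _ = a * v * a⁻¹ := by group
      rw [h5]
      exact h2 t ht
    have hAV : ∀ x ∈ V, ∀ y ∈ V, x ≠ 1 → y ≠ 1 → ∃ a ∈ A, a * x * a⁻¹ = y := by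
      intro x hx y hy hx1 hy1
      obtain ⟨n, hn, hny⟩ := hNV x hx y hy hx1 hy1
      obtain ⟨h, hh, t', ht', a, ha, rfl⟩ := hdecN2 n hn
      have h1 : a * x * a⁻¹ ∈ V := hVn.conj_mem x hx a
      refine ⟨a, ha, ?_⟩
      rw [← hny]
      symm
      calc h * (t' * a) * x * (h * (t' * a))⁻¹ = h * (t' * (a * x * a⁻¹)) * t'⁻¹ * h⁻¹ := by group
        _ = h * ((a * x * a⁻¹) * t') * t'⁻¹ * h⁻¹ := by rw [hTV t' ht' _ h1]
        _ = (h * (a * x * a⁻¹)) * h⁻¹ := by group
        _ = ((a * x * a⁻¹) * h) * h⁻¹ := by rw [hHV h hh _ h1]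
        _ = a * x * a⁻¹ := by group
    -- the commutator
    have hTnH : T ≤ normalizer (H : Set G) := hTN
    have hH1H : ⁅H, T⁆ ≤ H := le_normalizer_iff_commutator_le_left.1 hTnH
    obtain ⟨nT2, hnT2⟩ := IsPGroup.iff_card.1 hTp
    have hsolvT : Group.IsSolvable T := by
      have := hTp.isNilpotent
      infer_instance
    have hcc : ⁅⁅H, T⁆, T⁆ = ⁅H, T⁆ := Cop.commutator_commutator_eq hTnH
      (by rw [hnT2]; exact (Nat.Coprime.pow_right nT2 hH2).symm) (Or.inl hsolvT)
    have hTnH1 : T ≤ normalizer ((⁅H, T⁆ : Subgroup G) : Set G) := normalizer_commutator_ge_right H T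
    have hNH1 : N ≤ normalizer ((⁅H, T⁆ : Subgroup G) : Set G) := by
      intro n hn
      obtain ⟨h, hh, t, ht, a, ha, rfl⟩ := hdecN2 n hn
      refine mul_mem ?_ (mul_mem (hTnH1 ht) ?_)
      · exact normalizer_commutator_ge_left H T hh
      · exact H49.mem_normalizer_commutator (hAN ha) (hAT ha)
    have hH12 : (Nat.card (⁅H, T⁆ : Subgroup G)).Coprime 2 :=
      Nat.Coprime.coprime_dvd_left (Subgroup.card_dvd_of_le hH1H) hH2
    have hnt : ⁅Q, ⁅H, T⁆⁆ ≠ ⊥ := by
      intro h
      rw [commutator_eq_bot_iff_le_centralizer] at h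
      have h1 : ⁅H, T⁆ ≤ Q := (Subgroup.le_centralizer_iff.1 h).trans hCQ
      have h2 : ⁅H, T⁆ = ⊥ := by
        rw [eq_bot_iff, ← hQH]; exact le_inf h1 hH1H
      rw [commutator_eq_bot_iff_le_centralizer] at h2
      have h3 := mem_centralizer_iff.1 (h2 hh₀) t₀ ht₀
      exact hth₀ h3.symm
    obtain ⟨R, hRQ, hNR, hRnt, hRmin⟩ := Cop.exists_min (A := ⁅H, T⁆) (B := N) (P := Q) (hQnorm N) hnt
    have hRp : IsPGroup 2 R := hQp.to_le hRQ
    have hRH := Cop.min_commutator_eq (p := 2) hRp hNR (hH1H.trans hHN) hNH1 hH12 hRnt hRmin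
    have hRne : R ≠ ⊥ := by
      rintro rfl
      exact hRnt (commutator_bot_left _)
    have hVR : V ≤ R := by
      obtain ⟨z, hz, hz1, hz2⟩ := exists_involution hRp hRne
      intro v hv
      by_cases hv1 : v = 1
      · rw [hv1]; exact R.one_mem
      obtain ⟨n, hn, rfl⟩ := hNV z hz2 v hv hz1 hv1
      exact conj_mem_of_norm (hNR hn) hz
    rcases Cop.min_structure (p := 2) hRp hNR (hH1H.trans hHN) hNH1 hH12 hRnt hRmin with ⟨_, h1⟩ | ⟨hsp, _, h1⟩
    · have h2 : x ∈ R ⊓ centralizer ((⁅H, T⁆ : Subgroup G) : Set G) := by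
        refine ⟨hVR hx2, mem_centralizer_iff.2 (fun h hh => hHV h (hH1H hh) x hx2)⟩
      rw [h1, mem_bot] at h2
      exact hx1 h2
    · obtain ⟨_, hfr, hcm⟩ := hsp
      -- squares and commutators are central
      have hsqc : ∀ r : R, r * r ∈ center R := by
        intro r
        rw [← hfr, ← pow_two]
        exact Solv.pow_mem_frattini_of_pGroup hRp r
      have hcmc : ∀ r s : R, ⁅r, s⁆ ∈ center R := by
        intro r s
        rw [← hcm]
        exact Subgroup.commutator_mem_commutator (mem_top r) (mem_top s)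
      have hcenter : ∀ z ∈ center R, z * z = 1 := by
        intro z hz
        rw [← hcm, _root_.commutator_def, Subgroup.commutator_def] at hz
        refine Subgroup.closure_induction (p := fun z _ => z * z = 1) ?_ (mul_one 1) ?_ ?_ hz
        · rintro _ ⟨a, _, b, _, rfl⟩
          have h2 := hsqc a
          have h3 := mem_center_iff.1 h2 b
          have h4 := mem_center_iff.1 (hcmc a b)
          -- [a,b]^2 = [a^2,b] = 1
          have h5 : ⁅a, b⁆ * ⁅a, b⁆ = ⁅a * a, b⁆ := by
            have e1 : ⁅a * a, b⁆ = a * ⁅a, b⁆ * a⁻¹ * ⁅a, b⁆ := by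
              rw [commutatorElement_def, commutatorElement_def]; group
            rw [e1, h4 a, mul_inv_cancel_right]
          rw [h5, commutatorElement_eq_one_iff_mul_comm]
          exact h3.symm
        · intro a b ha hb ha2 hb2
          have ha' : a ∈ center R := by
            rw [← hcm, _root_.commutator_def, Subgroup.commutator_def]; exact ha
          have h3 := mem_center_iff.1 ha' b
          calc a * b * (a * b) = a * (b * a) * b := by group
            _ = a * (a * b) * b := by rw [h3]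
            _ = (a * a) * (b * b) := by group
            _ = 1 := by rw [ha2, hb2, one_mul]
        · intro a _ ha2
          rw [← mul_inv_rev, ha2, inv_one]
      have hcV : ∀ z : R, z ∈ center R → (z : G) ∈ V := fun z hz => congrArg Subtype.val (hcenter z hz)
      have S : Sit R V T A ⁅H, T⁆ :=
        { VR := hVR
          V2 := fun v hv => hv
          inv := fun x hx => hx
          Vc := fun v hv r hr => (hQV r (hRQ hr) v hv).symm
          sq := fun r hr => hcV _ (hsqc ⟨r, hr⟩)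
          cm := fun r hr s hs => by
            have := hcV _ (hcmc ⟨r, hr⟩⁻¹ ⟨s, hs⟩)
            have e : ((⁅(⟨r, hr⟩ : R)⁻¹, (⟨s, hs⟩ : R)⁆ : R) : G) = r⁻¹ * s * r * s⁻¹ := by
              rw [commutatorElement_def, inv_inv]; rfl
            rwa [e] at this
          A2 := hA2
          AR := hAN.trans hNR
          AT := hAT
          AV := hAV
          V4 := ⟨x, hx2, y, hy2, hx1, hy1, hxy⟩
          T2 := hTp
          TR := hTN.trans hNR
          TV := hTV
          H2 := hH12
          HR := (hH1H.trans hHN).trans hNR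
          HV := fun h hh v hv => hHV h (hH1H hh) v hv
          TH := hTnH1
          RH := hRH
          HT := hcc }
      exact S.false

end Cfsg.Agent.H93.ThOne
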